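import Cfsg.Agent.H857.L5.RegOf
import Cfsg.Agent.H858.L5.SlA
import Cfsg.Agent.H865.L5.Iso
import Cfsg.Agent.H343.L5.FiveElt

/-!
# S5923, D1 : `exists_reg` (helper857)
-/

set_option autoImplicit false

namespace Cfsg.Agent.H857.L5

open Cfsg Cfsg.Lie Cfsg.Lie.ChevalleyDatum Cfsg.Agent.H865.L5
open Cfsg.Agent.BpExc.Tow Cfsg.Agent.BpExc.TowChev Cfsg.Agent.GpExc.Field Cfsg.Agent.BpExc.LangFr

/-- section S -/
theorem sf : SF :=
  ⟨Cfsg.Agent.H858.L5.exists_US, Cfsg.Agent.H858.L5.exists_VL, Cfsg.Agent.H858.L5.six,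
    fun _ _ hc hd => Cfsg.Agent.H858.L5.six_conj hc hd⟩

/-- section A -/
theorem af (k : Type) [Field k] [CharP k 3] [IsAlgClosed k] [PerfectRing k 3] (hk : LocFin k) : AF k hk :=
  ⟨exists_zeta3 k, fun _ hζ => exists_iso3 hk hζ, card_T5 hk, fun _ hy h => norm_T5 hk hy h, finite_GT, not_dvd_GT⟩

/-- section B -/
theorem bf : BF :=
  ⟨fun _ hu h5 h1 _ ha => Cfsg.Agent.H343.L5.sq_ne hu h5 h1 ha,
    fun _ hu h5 h1 _ _ hφ hψ h0 => Cfsg.Agent.H343.L5.fix_line hu h5 h1 hφ hψ h0⟩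

/-- **D1** : up to conjugation in `GT k`, `f VP` or `f VL` is a regular subgroup of `T5 k`. -/
theorem exists_reg {k : Type} [Field k] [CharP k 3] [IsAlgClosed k] [PerfectRing k 3] (hk : LocFin k)
    (f : SL35 →* ↥(chevE8.group k)) (hf : Function.Injective f) (hr : ∀ x, f x ∈ GT k) :
    (∃ g ∈ GT k, (∀ s ∈ VP, g * f s * g⁻¹ ∈ T5 k) ∧ Reg ((fun s => g * f s * g⁻¹) '' VP)) ∨
      (∃ g ∈ GT k, (∀ s ∈ VL, g * f s * g⁻¹ ∈ T5 k) ∧ Reg ((fun s => g * f s * g⁻¹) '' VL)) :=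
  exists_reg_of sf (af k hk) bf f hf hr

end Cfsg.Agent.H857.L5
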